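import Cfsg.Agent.H13.M22.Ten
import Cfsg.Agent.H13.M22.Twelve
import Cfsg.Agent.H424.M22Core
import Cfsg.Agent.H921.SporCore

/-!
# Cores with socle `M₂₂` of degree at most twelve, odd characteristic (helper13)
-/

set_option autoImplicit false
set_option linter.unusedSectionVars false

namespace Cfsg.Agent.H13.M22

open Module Cfsg Cfsg.Geo H915.LD Cfsg.Agent.H906 Cfsg.Agent.H906.Wt

universe u

variable {F : Type u} [Field F]

/-- **Cores with socle `M₂₂` in odd characteristic: the degree, if at most twelve, is ten.** -/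
theorem odd_ten [Finite F] {n : ℕ} {P : Subgroup (GL (Fin n) F)} (p : ℕ) [hp : Fact p.Prime] [CharP F p]
    (hC : Core P) (hp2 : p ≠ 2) (hn : n ≤ 12) (h : Spor.IsoM22 (Soc P)) : n = 10 := by
  have h8 := H424.M22.core_ne_eight p hC.perfect hp2 h
  rw [Fintype.card_fin] at h8
  obtain ⟨e⟩ := h
  have hfin : Finite P := inferInstance
  have hne := hC.nonempty
  have h2F : ((2 : ℕ) : F) ≠ 0 := by
    intro h0
    rw [CharP.cast_eq_zero_iff F p] at h0
    exact hp2 ((Nat.prime_dvd_prime_iff_eq hp.out Nat.prime_two).1 h0)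
  have h2Ω := T14.two_ne (F := F) p hp2 (AlgebraicClosure F)
  have hcov := core_cov e p
  have hfr : finrank (AlgebraicClosure F) (Fin n → AlgebraicClosure F) = n := finrank_rep (by rw [Fintype.card_fin])
  obtain ⟨g, hg⟩ := hcov.surj (em x0P)
  obtain ⟨k, hk⟩ := hcov.surj (em sP)
  have h7 := (frob7 hcov h2Ω fr7 hg hk (by rw [hfr]; omega)).1
  rw [hfr] at h7
  have h12 : n ≠ 12 := fun h => twelve_false hcov h2Ω (by rw [hfr]; exact h)
  have heven : 2 ∣ n := by
    by_contra hodd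
    have h1 := hC.pr e (H921.Spor.core_coprime hC Nat.prime_two (by rw [Fintype.card_fin]; exact hodd))
    have h2 := H921.Spor.M24.M22_two.bd (F := F) Nat.prime_two h2F n h1
    omega
  omega

/-- the conclusion by the residue of the characteristic modulo 28 -/
theorem ten_mod [Finite F] {ι : Type} [Fintype ι] [DecidableEq ι] {P : Subgroup (GL ι F)} (p : ℕ) [hp : Fact p.Prime]
    [CharP F p] (hC : Core P) (hp2 : p ≠ 2) (hn : Fintype.card ι = 10) (h : Spor.IsoM22 (Soc P)) :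
    SD P ∨ (((p % 28 = 1 ∨ p % 28 = 9 ∨ p % 28 = 25 ∨ p % 28 = 11 ∨ p % 28 = 15 ∨ p % 28 = 23) ∧ Fr P p) ∨
      ((p % 28 = 5 ∨ p % 28 = 13 ∨ p % 28 = 17 ∨ p % 28 = 3 ∨ p % 28 = 19 ∨ p % 28 = 27) ∧ Cj P p)) := by
  obtain ⟨e⟩ := h
  obtain ⟨h1, h2, h3⟩ := ten p hC hp2 hn e
  have hodd : p % 2 = 1 := by
    rcases hp.out.eq_two_or_odd with h | h
    · exact absurd h hp2
    · exact h
  have m7 : p % 28 % 7 = p % 7 := Nat.mod_mod_of_dvd p (by norm_num)
  have m2 : p % 28 % 2 = p % 2 := Nat.mod_mod_of_dvd p (by norm_num)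
  have m28 : p % 28 < 28 := Nat.mod_lt _ (by norm_num)
  generalize p % 28 = r at m7 m2 m28 ⊢
  rw [hodd] at m2
  by_cases h7 : p % 7 = 0
  · left
    have h8 : 7 ∣ p := Nat.dvd_of_mod_eq_zero h7
    have h9 : p = 7 := ((Nat.prime_dvd_prime_iff_eq (by norm_num) hp.out).1 h8).symm
    exact (h3 h9).1
  · right
    by_cases h4 : p % 7 = 1 ∨ p % 7 = 2 ∨ p % 7 = 4
    · left
      refine ⟨?_, h1 h4⟩
      rw [← m7] at h4
      clear h7 h1 h2 h3 m7
      revert h4 m2
      interval_cases r <;> decide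
    · right
      refine ⟨?_, h2 (by omega)⟩
      rw [← m7] at h4 h7
      clear h1 h2 h3 m7
      revert h4 m2 h7
      interval_cases r <;> decide

end Cfsg.Agent.H13.M22
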